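import Cfsg.Agent.H252.LT.Tr
import Cfsg.Agent.S0028

/-! # S2927: criterion D -/

set_option autoImplicit false
set_option linter.unusedSectionVars false
open Cfsg Subgroup
open Cfsg.Agent.H229 Cfsg.Agent.H230

universe u

namespace Cfsg.Agent.H252.LT

/-- If `L` has characteristic `p` and `x` is a `p`-element then `C_L(x)` has characteristic `p`. -/
theorem chP_inf_cent {G : Type*} [Group G] [Finite G] {p : ℕ} [Fact p.Prime] {L : Subgroup G} (h : ChP p L) {x : G}
    (hxL : x ∈ L) (hx : ∃ k : ℕ, x ^ p ^ k = 1) : ChP p (L ⊓ centralizer ({x} : Set G)) := by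
  unfold ChP
  set C := L ⊓ centralizer ({x} : Set G) with hC
  set D := C ⊓ centralizer (pCoreOf p C : Set G) with hD
  have hCR : pCoreOf p L ⊓ centralizer ({x} : Set G) ≤ pCoreOf p C := by
    refine le_trans (le_inf inf_le_left (le_inf (inf_le_left.trans (pCoreOf_le p L)) inf_le_right)) ?_
    exact pCoreOf_inf_le (P := C) (L := L) inf_le_left
  have hDp : IsPGroup p ↥D := by
    apply subgroup_isPGroup_of_coprime_trivial
    intro y hy hyo
    have hyL : y ∈ L := hy.1.1
    have hyx : y * x = x * y := mem_centralizer_singleton_iff.1 hy.1.2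
    have key := S0028.result p (zpowers x) (zpowers y) (pCoreOf p L)
      (by
        obtain ⟨k, hk⟩ := hx
        rw [IsPGroup.iff_card]
        rw [Nat.card_zpowers]
        exact (Nat.dvd_prime_pow (Fact.out : p.Prime)).1 (orderOf_dvd_of_pow_eq_one hk) |>.imp fun _ h => h.2)
      (by rw [Nat.card_zpowers]; exact hyo)
      (isPGroup_pCoreOf p L)
      (by
        rw [zpowers_le, mem_centralizer_iff]
        rintro _ ⟨k, rfl⟩
        exact (Commute.zpow_left hyx k).eq)
      (by rw [zpowers_le]; exact le_norm_pCoreOf p L hxL)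
      (by rw [zpowers_le]; exact le_norm_pCoreOf p L hyL)
      (by
        intro u hu
        have hux : u ∈ centralizer ({x} : Set G) := by
          rw [mem_centralizer_singleton_iff]
          exact ((mem_centralizer_iff.1 hu.2) x (mem_zpowers x)).symm
        have h1 : u ∈ pCoreOf p C := hCR ⟨hu.1, hux⟩
        have h2 : u * y = y * u := mem_centralizer_iff.1 hy.2 u h1
        rw [mem_centralizer_iff]
        rintro _ ⟨k, rfl⟩
        exact ((Commute.zpow_right h2 k).eq).symm)
    have h1 : y ∈ pCoreOf p L := h ⟨hyL, key (mem_zpowers y)⟩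
    obtain ⟨k, hk⟩ := isPGroup_pCoreOf p L ⟨y, h1⟩
    have hk' : y ^ p ^ k = 1 := congrArg Subtype.val hk
    have h5 : orderOf y ∣ p ^ k := orderOf_dvd_of_pow_eq_one hk'
    exact orderOf_eq_one_iff.1 (Nat.eq_one_of_dvd_coprimes (Nat.Coprime.pow_right k hyo) dvd_rfl h5)
  refine le_pCoreOf inf_le_left ?_ hDp
  refine le_trans ?_ (norm_inf_le _ _)
  exact le_inf le_normalizer ((le_norm_pCoreOf p C).trans (norm_le_norm_centralizer _))

/-- **Criterion D.** -/
theorem dead_of_KD : DeadL.{u} fun K _ => KD K := by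
  intro G _ _ S Q M c K hK hs hna _ ⟨t, D, ht1, ht2, hDt, hnD, hD, hcD⟩
  have : Fact (Nat.Prime 2) := ⟨Nat.prime_two⟩
  obtain ⟨P, hP⟩ := exists_isSylowOf (p := 2) D
  -- `⟨P, t⟩` is a 2-group
  have htC : zpowers t ≤ normalizer (P : Set ↥K) := by
    rw [zpowers_le]
    apply centralizer_le_norm
    rw [mem_centralizer_iff]
    exact fun q hq => mem_centralizer_singleton_iff.1 (hDt (hP.le hq))
  have hPt : IsPGroup 2 ↥(P ⊔ zpowers t : Subgroup ↥K) := by
    apply isPGroup_sup_of_norm hP.isPGroup _ htC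
    intro ⟨y, k, hk⟩
    refine ⟨1, Subtype.ext ?_⟩
    have : y = t ^ k := hk.symm
    show y ^ 2 ^ 1 = 1
    rw [this, pow_one, ← zpow_natCast, ← zpow_mul, mul_comm, zpow_mul, zpow_natCast, ht2, one_zpow]
  have hPG : IsPGroup 2 ↥((P ⊔ zpowers t : Subgroup ↥K).map K.subtype) := hPt.map _
  obtain ⟨S', hS'⟩ := hPG.exists_le_sylow
  obtain ⟨z, hzK, hz, hz2, hz1⟩ := Cx.exists_central S' K (Cx.two_dvd_of_simple hna)
  obtain ⟨g, hg⟩ := MulAction.exists_smul_eq G S' S
  have hgz : g * z * g⁻¹ ∈ centralizer ((S : Subgroup G) : Set G) := by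
    rw [mem_centralizer_iff]
    intro s hs
    rw [← hg] at hs
    obtain ⟨q, hq, rfl⟩ := hs
    have h3 : q * z = z * q := mem_centralizer_iff.1 hz q hq
    show g * q * g⁻¹ * (g * z * g⁻¹) = g * z * g⁻¹ * (g * q * g⁻¹)
    calc g * q * g⁻¹ * (g * z * g⁻¹) = g * (q * z) * g⁻¹ := by group
      _ = g * (z * q) * g⁻¹ := by rw [h3]
      _ = g * z * g⁻¹ * (g * q * g⁻¹) := by group
  have hch : ChP 2 (centralizer ({(⟨z, hzK⟩ : ↥K)} : Set ↥K)) := by
    rw [chP_cent]
    exact c.chP_conj_inf hgz hz1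
  set w : ↥K := ⟨z, hzK⟩ with hw
  have hcomm : ∀ y ∈ (P ⊔ zpowers t : Subgroup ↥K), y * w = w * y := fun y hy =>
    Subtype.ext (mem_centralizer_iff.1 hz y (hS' ⟨y, hy, rfl⟩))
  have hwt : w ∈ centralizer ({t} : Set ↥K) := by
    rw [mem_centralizer_singleton_iff]
    exact (hcomm t (mem_sup_right (mem_zpowers t))).symm
  have hwD : w ∈ centralizer (D : Set ↥K) := by
    have hwP : w ∈ centralizer (P : Set ↥K) := by
      rw [mem_centralizer_iff]
      exact fun q hq => hcomm q (mem_sup_left hq)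
    exact hcD P hP ⟨hwP, hwt⟩
  have hDw : D ≤ centralizer ({w} : Set ↥K) := by
    intro d hd
    rw [mem_centralizer_singleton_iff]
    exact mem_centralizer_iff.1 hwD d hd
  have htw : t ∈ centralizer ({w} : Set ↥K) := by
    rw [mem_centralizer_singleton_iff]
    exact (hcomm t (mem_sup_right (mem_zpowers t)))
  have h1 := chP_inf_cent hch htw ⟨1, by rw [pow_one]; exact ht2⟩
  exact hD (h1.normal (le_inf hDw hDt) (inf_le_right.trans hnD))

end Cfsg.Agent.H252.LT
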